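import Mathlib

/-!
Binary codes of length 24 with 4096 words and minimum weight 8: perfectness of the punctured
code, coset leaders, and the S(5,8,24) of the weight 8 words.
-/

set_option autoImplicit false

namespace CfsgLib.Golay

variable {α : Type*} [Fintype α] [DecidableEq α]

/-- The support of a binary word. -/
def supp (v : α → ZMod 2) : Finset α := Finset.univ.filter fun a => v a ≠ 0

/-- The indicator word of a set. -/
def ind (s : Finset α) : α → ZMod 2 := fun a => if a ∈ s then 1 else 0

theorem hammingNorm_eq_card_supp (v : α → ZMod 2) : hammingNorm v = (supp v).card := rfl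

omit [Fintype α] in
theorem ind_apply (s : Finset α) (a : α) : ind s a = if a ∈ s then 1 else 0 := rfl

theorem supp_ind (s : Finset α) : supp (ind s) = s := by
  ext a; by_cases h : a ∈ s <;> simp [supp, ind, h]

theorem mem_supp {v : α → ZMod 2} {a : α} : a ∈ supp v ↔ v a ≠ 0 := by simp [supp]

theorem supp_eq_empty {v : α → ZMod 2} : supp v = ∅ ↔ v = 0 := by
  simp [supp, Finset.filter_eq_empty_iff, funext_iff]

theorem supp_sub (v w : α → ZMod 2) : supp (v - w) = symmDiff (supp v) (supp w) := by
  ext a
  have h : ∀ x y : ZMod 2, (x - y ≠ 0) ↔ (x ≠ 0 ∧ ¬ y ≠ 0 ∨ y ≠ 0 ∧ ¬ x ≠ 0) := by decide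
  simpa [supp, Finset.mem_symmDiff] using h (v a) (w a)

variable {C : Submodule (ZMod 2) (α → ZMod 2)}

/-- The number of subsets of size at most 3 of a set of 23 points. -/
theorem card_small (T : Finset α) (hT : T.card = 23) :
    (T.powerset.filter (fun e => e.card ≤ 3)).card = 2048 := by
  rw [Finset.card_filter, Finset.sum_powerset_apply_card (fun n => if n ≤ 3 then 1 else 0), hT]
  decide +kernel

variable (hα : Fintype.card α = 24) (hC : Nat.card C = 4096)
  (hmin : ∀ w ∈ C, w ≠ 0 → 8 ≤ hammingNorm w)

include hmin in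
/-- Two words in the same coset with weights adding to less than 8 are equal. -/
theorem eq_of_coset {v v' : α → ZMod 2} (h : v - v' ∈ C)
    (hlt : hammingNorm v + hammingNorm v' < 8) : v = v' := by
  by_contra hne
  have h8 := hmin _ h (sub_ne_zero.mpr hne)
  rw [hammingNorm_eq_card_supp, supp_sub] at h8
  rw [hammingNorm_eq_card_supp, hammingNorm_eq_card_supp] at hlt
  have := (Finset.card_le_card (symmDiff_le_sup : symmDiff (supp v) (supp v') ≤ _)).trans
    (Finset.card_union_le _ _)
  omega

include hα hC hmin in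
/-- The code punctured at `p` is perfect: every coset contains a word with at most three ones
outside `p`. -/
theorem exists_near (p : α) (w : α → ZMod 2) :
    ∃ v : α → ZMod 2, w - v ∈ C ∧ ((supp v).erase p).card ≤ 3 := by
  classical
  set T : Finset α := Finset.univ.erase p with hT
  have hTc : T.card = 23 := by rw [hT, Finset.card_erase_of_mem (Finset.mem_univ p), Finset.card_univ, hα]
  set E := T.powerset.filter (fun e => e.card ≤ 3) with hE
  let f : C × E → (T → ZMod 2) := fun ce a => (ce.1 : α → ZMod 2) a + ind (ce.2 : Finset α) a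
  have hinj : Function.Injective f := by
    rintro ⟨c, e, he⟩ ⟨c', e', he'⟩ h
    simp only [hE, Finset.mem_filter, Finset.mem_powerset] at he he'
    have hoff : supp (c.1 - c'.1) ⊆ insert p (e ∪ e') := by
      intro a ha
      by_contra hn
      simp only [Finset.mem_insert, Finset.mem_union, not_or] at hn
      have hh := congrFun h ⟨a, by simp [hT, hn.1]⟩
      simp only [f, ind, if_neg hn.2.1, if_neg hn.2.2, add_zero] at hh
      simp [mem_supp, hh] at ha
    have hcc : c = c' := by
      by_contra hne
      have h8 := hmin _ (sub_mem c.2 c'.2) (sub_ne_zero.mpr fun q => hne (Subtype.ext q))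
      rw [hammingNorm_eq_card_supp] at h8
      have h1 := Finset.card_le_card hoff
      have h2 := Finset.card_insert_le p (e ∪ e')
      have h3 := Finset.card_union_le e e'
      omega
    subst hcc
    congr 1
    apply Subtype.ext
    show e = e'
    ext a
    by_cases ha : a ∈ T
    · have hh := congrFun h ⟨a, ha⟩
      simp only [f, add_right_inj, ind] at hh
      by_cases h1 : a ∈ e <;> by_cases h2 : a ∈ e' <;> simp_all
    · exact ⟨fun q => absurd (he.1 q) ha, fun q => absurd (he'.1 q) ha⟩
  have hcard : Nat.card (C × E) = Nat.card (T → ZMod 2) := by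
    rw [Nat.card_prod, hC, Nat.card_fun, Nat.card_zmod, Nat.card_eq_finsetCard, Nat.card_eq_finsetCard,
      hTc, hE, card_small T hTc]
    norm_num
  obtain ⟨⟨c, e, he⟩, hce⟩ :=
    ((Nat.bijective_iff_injective_and_card f).mpr ⟨hinj, hcard⟩).surjective (fun a : T => w a)
  simp only [hE, Finset.mem_filter] at he
  refine ⟨w - c, by rw [sub_sub_cancel]; exact c.2, le_trans (Finset.card_le_card ?_) he.2⟩
  intro a ha
  rw [Finset.mem_erase, mem_supp] at ha
  have hh := congrFun hce ⟨a, by simp [hT, ha.1]⟩
  by_contra hn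
  simp only [f, ind, if_neg hn, add_zero] at hh
  exact ha.2 (by simp [hh])

include hα hC hmin in
/-- Covering radius 4. -/
theorem exists_leader (w : α → ZMod 2) :
    ∃ v : α → ZMod 2, w - v ∈ C ∧ hammingNorm v ≤ 4 := by
  obtain ⟨p⟩ : Nonempty α := Fintype.card_pos_iff.mp (by omega)
  obtain ⟨v, hv, h3⟩ := exists_near hα hC hmin p w
  refine ⟨v, hv, ?_⟩
  have := Finset.pred_card_le_card_erase (s := supp v) (a := p)
  rw [hammingNorm_eq_card_supp]
  omega

include hα hC hmin in
/-- A coset has a unique word of weight at most 3, or six words of weight 4 partitioning the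
points. -/
theorem coset_leaders (w : α → ZMod 2) :
    ({v : α → ZMod 2 | hammingNorm v ≤ 4 ∧ w - v ∈ C}.ncard = 1 ∧
        ∃ v : α → ZMod 2, hammingNorm v ≤ 3 ∧ w - v ∈ C) ∨
      ({v : α → ZMod 2 | hammingNorm v ≤ 4 ∧ w - v ∈ C}.ncard = 6 ∧
        ∀ v : α → ZMod 2, w - v ∈ C → hammingNorm v ≤ 4 → hammingNorm v = 4) := by
  classical
  by_cases h3 : ∃ v : α → ZMod 2, hammingNorm v ≤ 3 ∧ w - v ∈ C
  · obtain ⟨v, hv, hvC⟩ := h3
    refine Or.inl ⟨?_, v, hv, hvC⟩
    rw [Set.ncard_eq_one]
    refine ⟨v, Set.ext fun u => ⟨fun hu => ?_, ?_⟩⟩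
    · refine eq_of_coset hmin ?_ (by have := hu.1; omega)
      have h := sub_mem hvC hu.2
      rwa [sub_sub_sub_cancel_left] at h
    · rintro rfl; exact ⟨by omega, hvC⟩
  · push Not at h3
    have h4 : ∀ v : α → ZMod 2, w - v ∈ C → hammingNorm v ≤ 4 → hammingNorm v = 4 := by
      intro v hv hle
      by_contra hne
      exact h3 v (by omega) hv
    refine Or.inr ⟨?_, h4⟩
    set L := Finset.univ.filter fun v : α → ZMod 2 => hammingNorm v ≤ 4 ∧ w - v ∈ C with hL
    have hdisj : (L : Set (α → ZMod 2)).PairwiseDisjoint supp := by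
      intro v hv v' hv' hne
      simp only [hL, Finset.coe_filter, Finset.mem_univ, true_and, Set.mem_ofPred_eq] at hv hv'
      rw [Function.onFun, Finset.disjoint_iff_inter_eq_empty, ← Finset.card_eq_zero]
      have h8 := hmin _ (show v - v' ∈ C by
        have h := sub_mem hv'.2 hv.2; rwa [sub_sub_sub_cancel_left] at h) (sub_ne_zero.mpr hne)
      rw [hammingNorm_eq_card_supp, supp_sub] at h8
      have hle : (symmDiff (supp v) (supp v')).card + (supp v ∩ supp v').card ≤
          (supp v ∪ supp v').card := by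
        rw [← Finset.card_union_of_disjoint]
        · exact Finset.card_le_card fun a => by simp [Finset.mem_symmDiff]; tauto
        · rw [Finset.disjoint_left]; intro a; simp [Finset.mem_symmDiff]; tauto
      have := Finset.card_union_le (supp v) (supp v')
      have e1 := hv.1
      have e2 := hv'.1
      rw [hammingNorm_eq_card_supp] at e1 e2
      omega
    have hcover : L.biUnion supp = Finset.univ := by
      rw [Finset.eq_univ_iff_forall]
      intro p
      obtain ⟨v, hv, hv3⟩ := exists_near hα hC hmin p w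
      have hp : p ∈ supp v := by
        by_contra hp
        rw [Finset.erase_eq_of_notMem hp] at hv3
        exact h3 v hv3 hv
      refine Finset.mem_biUnion.mpr ⟨v, ?_, hp⟩
      rw [Finset.card_erase_of_mem hp] at hv3
      rw [hL]
      exact Finset.mem_filter.mpr ⟨Finset.mem_univ _, by rw [hammingNorm_eq_card_supp]; omega, hv⟩
    have h := congrArg Finset.card hcover
    rw [Finset.card_biUnion hdisj, Finset.sum_congr rfl (g := fun _ => 4) (fun v hv => by
      simp only [hL, Finset.mem_filter] at hv
      exact h4 v hv.2.2 hv.2.1), Finset.sum_const, Finset.card_univ, hα, smul_eq_mul] at h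
    have e : {v : α → ZMod 2 | hammingNorm v ≤ 4 ∧ w - v ∈ C} = (L : Set (α → ZMod 2)) := by
      ext v; simp [hL]
    rw [e, Set.ncard_coe_finset]
    omega

include hα hC hmin in
/-- Five points lie in a weight 8 word. -/
theorem exists_word_eight {s : Finset α} (hs : s.card = 5) :
    ∃ c ∈ C, hammingNorm c = 8 ∧ s ⊆ supp c := by
  obtain ⟨p, hp⟩ : s.Nonempty := Finset.card_pos.mp (by omega)
  obtain ⟨v, hv, hv3⟩ := exists_near hα hC hmin p (ind (s.erase p))
  have hne : ind (s.erase p) - v ≠ 0 := by
    intro h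
    rw [sub_eq_zero] at h
    rw [← h, supp_ind, Finset.erase_idem, Finset.card_erase_of_mem hp] at hv3
    omega
  have h8 := hmin _ hv hne
  rw [hammingNorm_eq_card_supp, supp_sub, supp_ind] at h8
  have hse : (s.erase p).card = 4 := by rw [Finset.card_erase_of_mem hp]; omega
  have hv4 : (supp v).card ≤ 4 := by
    have := Finset.pred_card_le_card_erase (s := supp v) (a := p); omega
  have hsub : symmDiff (s.erase p) (supp v) ⊆ s.erase p ∪ supp v := symmDiff_le_sup
  have hu := Finset.card_union_le (s.erase p) (supp v)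
  have heq : symmDiff (s.erase p) (supp v) = s.erase p ∪ supp v :=
    Finset.eq_of_subset_of_card_le hsub (by omega)
  have hpv : p ∈ supp v := by
    by_contra h
    rw [Finset.erase_eq_of_notMem h] at hv3
    rw [heq] at h8
    omega
  refine ⟨_, hv, ?_, ?_⟩
  · rw [hammingNorm_eq_card_supp, supp_sub, supp_ind]
    rw [heq] at h8 ⊢
    omega
  · rw [supp_sub, supp_ind, heq]
    intro a ha
    by_cases hap : a = p
    · subst hap; exact Finset.mem_union_right _ hpv
    · exact Finset.mem_union_left _ (Finset.mem_erase.mpr ⟨hap, ha⟩)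

include hmin in
/-- Weight 8 words sharing five points are equal. -/
theorem word_eight_unique {s : Finset α} (hs : 5 ≤ s.card) {b c : α → ZMod 2} (hb : b ∈ C)
    (hc : c ∈ C) (hb8 : hammingNorm b = 8) (hc8 : hammingNorm c = 8) (hsb : s ⊆ supp b)
    (hsc : s ⊆ supp c) : b = c := by
  by_contra hne
  have h8 := hmin _ (sub_mem hb hc) (sub_ne_zero.mpr hne)
  rw [hammingNorm_eq_card_supp, supp_sub] at h8
  rw [hammingNorm_eq_card_supp] at hb8 hc8
  have h1 : symmDiff (supp b) (supp c) ⊆ (supp b \ s) ∪ (supp c \ s) := by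
    intro a
    simp only [Finset.mem_symmDiff, Finset.mem_union, Finset.mem_sdiff]
    rintro (⟨hx, hy⟩ | ⟨hx, hy⟩)
    · exact Or.inl ⟨hx, fun h => hy (hsc h)⟩
    · exact Or.inr ⟨hx, fun h => hy (hsb h)⟩
  have h2 := (Finset.card_le_card h1).trans (Finset.card_union_le _ _)
  rw [Finset.card_sdiff_of_subset hsb, Finset.card_sdiff_of_subset hsc] at h2
  omega

include hα hC hmin in
/-- For a nonempty set of at most four points some weight 8 word meets it in an odd number. -/
theorem exists_word_odd {u : Finset α} (hne : u.Nonempty) (h4 : u.card ≤ 4) :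
    ∃ c ∈ C, hammingNorm c = 8 ∧ Odd (supp c ∩ u).card := by
  obtain ⟨T, huT, -, hT⟩ := Finset.exists_subsuperset_card_eq (Finset.subset_univ u)
    (show u.card ≤ 5 by omega) (by rw [Finset.card_univ, hα]; omega)
  obtain ⟨c₁, hc₁, h1, hT1⟩ := exists_word_eight hα hC hmin hT
  rcases Nat.even_or_odd u.card with he | ho
  · obtain ⟨q, hq⟩ := hne
    obtain ⟨b, -, hb⟩ : ∃ b ∈ (Finset.univ : Finset α), b ∉ supp c₁ :=
      Finset.exists_mem_notMem_of_card_lt_card (by
        rw [Finset.card_univ, hα, ← hammingNorm_eq_card_supp, h1]; norm_num)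
    have hbT : b ∉ T.erase q := fun h => hb (hT1 (Finset.mem_of_mem_erase h))
    have hT' : (insert b (T.erase q)).card = 5 := by
      rw [Finset.card_insert_of_notMem hbT, Finset.card_erase_of_mem (huT hq)]; omega
    obtain ⟨c₂, hc₂, h2, hT2⟩ := exists_word_eight hα hC hmin hT'
    refine ⟨c₂, hc₂, h2, ?_⟩
    have hq2 : q ∉ supp c₂ := by
      intro hq2
      have : c₁ = c₂ := word_eight_unique hmin hT.ge hc₁ hc₂ h1 h2 hT1 fun a ha => by
        by_cases h : a = q
        · exact h ▸ hq2
        · exact hT2 (Finset.mem_insert_of_mem (Finset.mem_erase.mpr ⟨h, ha⟩))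
      exact hb (this ▸ hT2 (Finset.mem_insert_self _ _))
    have e : supp c₂ ∩ u = u.erase q := by
      ext a
      simp only [Finset.mem_inter, Finset.mem_erase]
      constructor
      · rintro ⟨ha, hau⟩; exact ⟨fun h => hq2 (h ▸ ha), hau⟩
      · rintro ⟨haq, hau⟩
        exact ⟨hT2 (Finset.mem_insert_of_mem (Finset.mem_erase.mpr ⟨haq, huT hau⟩)), hau⟩
    rw [e, Finset.card_erase_of_mem hq]
    exact Nat.Even.sub_odd (Finset.card_pos.mpr ⟨q, hq⟩) he odd_one
  · refine ⟨c₁, hc₁, h1, ?_⟩
    rw [Finset.inter_eq_right.mpr (huT.trans hT1)]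
    exact ho

end CfsgLib.Golay
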