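import Cfsg.Agent.Golay.Perm
import Cfsg.Prelude.Def_Spor_Mathieu
import Cfsg.Agent.Eq.Def_Sporadic_a
import Cfsg.Agent.Eq.Def_Spor_Mathieu

/-!
A few explicit elements of `M24` fixing the extra point.
-/

set_option autoImplicit false

open scoped Pointwise

namespace CfsgLib.GolaySmallPerms

open Cfsg CfsgLib.Golay

/-- A permutation of the 24 points from its table and the table of its inverse. -/
def ofImage (a b : Fin 24 → Fin 24) (h₁ : ∀ i, b (a i) = i) (h₂ : ∀ i, a (b i) = i) :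
    Equiv.Perm GolayPt :=
  ptEquiv.symm.trans ((⟨a, b, h₁, h₂⟩ : Fin 24 ≃ Fin 24).trans ptEquiv)

/-- `x ↦ 2x`. -/
def dbl : Equiv.Perm GolayPt :=
  ofImage (![0, 2, 4, 6, 8, 10, 12, 14, 16, 18, 20, 22, 1, 3, 5, 7, 9, 11, 13, 15, 17, 19, 21, 23]) (![0, 12, 1, 13, 2, 14, 3, 15, 4, 16, 5, 17, 6, 18, 7, 19, 8, 20, 9, 21, 10, 22, 11, 23]) (by decide +kernel) (by decide +kernel)

theorem dbl_mem : dbl ∈ M24 := mem_M24_iff.mpr (by decide +kernel)

/-- A permutation fixing the extra point and preserving the squares, moving `0`. -/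
def twelveElt : Equiv.Perm GolayPt :=
  ofImage (![4, 3, 18, 9, 12, 17, 8, 11, 2, 16, 21, 15, 1, 0, 19, 22, 13, 14, 6, 7, 20, 10, 5, 23]) (![13, 12, 8, 1, 0, 22, 18, 19, 6, 3, 21, 7, 4, 16, 17, 11, 9, 5, 2, 14, 20, 10, 15, 23]) (by decide +kernel) (by decide +kernel)

theorem twelveElt_mem : twelveElt ∈ M24 := mem_M24_iff.mpr (by decide +kernel)

/-- A permutation fixing both points, sending `1` to a non-square. -/
def twoU : Equiv.Perm GolayPt :=
  ofImage (![0, 5, 9, 8, 16, 18, 1, 21, 15, 12, 7, 3, 19, 4, 17, 2, 14, 10, 6, 11, 22, 13, 20, 23]) (![0, 6, 15, 11, 13, 1, 18, 10, 3, 2, 17, 19, 9, 21, 16, 8, 4, 14, 5, 12, 22, 7, 20, 23]) (by decide +kernel) (by decide +kernel)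

theorem twoU_mem : twoU ∈ M24 := mem_M24_iff.mpr (by decide +kernel)

/-- A permutation fixing three points. -/
def twoA : Equiv.Perm GolayPt :=
  ofImage (![0, 1, 13, 4, 17, 22, 3, 10, 11, 14, 20, 9, 5, 19, 16, 7, 18, 2, 21, 6, 12, 8, 15, 23]) (![0, 1, 17, 6, 3, 12, 19, 15, 21, 11, 7, 8, 20, 2, 9, 22, 14, 4, 16, 13, 10, 18, 5, 23]) (by decide +kernel) (by decide +kernel)

theorem twoA_mem : twoA ∈ M24 := mem_M24_iff.mpr (by decide +kernel)

/-- A second permutation fixing three points. -/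
def twoB : Equiv.Perm GolayPt :=
  ofImage (![0, 1, 5, 11, 20, 9, 14, 2, 15, 12, 16, 4, 7, 6, 21, 10, 18, 13, 8, 3, 19, 17, 22, 23]) (![0, 1, 7, 19, 11, 2, 13, 12, 18, 5, 15, 3, 9, 17, 6, 8, 10, 21, 16, 20, 4, 14, 22, 23]) (by decide +kernel) (by decide +kernel)

theorem twoB_mem : twoB ∈ M24 := mem_M24_iff.mpr (by decide +kernel)

end CfsgLib.GolaySmallPerms
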